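import Mathlib
import Cfsg.Agent.Lib.Helper37.U27.Defs
import Cfsg.Agent.Lib.Helper45.HermSU

/-!
# Project U27 (S5999): package [INV] (`r = 2`)
-/

set_option autoImplicit false
open scoped MatrixGroups Matrix

namespace Cfsg.Agent.Lib.Helper66.U27

open Cfsg.Agent.Lib.Helper37.U27 Cfsg.Agent.Lib.Helper45

universe u

/-- The scalar unit `c • 1`. -/
def scalU {F : Type u} [Field F] (c : F) (hc : c ≠ 0) : GL (Fin 3) F :=
  ⟨c • 1, c⁻¹ • 1, by simp [smul_smul, hc], by simp [smul_smul, hc]⟩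

theorem scalU_val {F : Type u} [Field F] (c : F) (hc : c ≠ 0) :
    ((scalU c hc : GL (Fin 3) F) : Matrix (Fin 3) (Fin 3) F) = c • 1 := rfl

theorem mem_GU_iff {F : Type u} [Field F] {q : ℕ} (g : GL (Fin 3) F) :
    g ∈ Cfsg.GU 3 F q ↔ IsHermIso 3 F q (g : Matrix (Fin 3) (Fin 3) F) := Iff.rfl

theorem mem_Gp_iff {F : Type u} [Field F] {q : ℕ} (g : GL (Fin 3) F) :
    g ∈ Gp F q ↔ g ∈ Cfsg.GU 3 F q ∧ (g : Matrix (Fin 3) (Fin 3) F).det = 1 := by
  unfold Gp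
  rw [Subgroup.mem_inf]
  refine and_congr Iff.rfl ?_
  unfold Cfsg.Geo.specialLinear
  rw [MonoidHom.mem_ker, Units.ext_iff]
  rfl

theorem scalU_mem_GU {F : Type u} [Field F] [Fintype F] {q : ℕ} (c : F) (hc : c ≠ 0) (h : c ^ (q + 1) = 1) :
    scalU c hc ∈ Cfsg.GU 3 F q := by
  rw [mem_GU_iff, scalU_val]
  exact isHermIso_smul_one c h

theorem det_smul_diag {F : Type u} [Field F] (c : F) (d : Fin 3 → F) :
    (c • Matrix.diagonal d).det = c ^ 3 * (d 0 * d 1 * d 2) := by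
  rw [Matrix.det_smul, Matrix.det_diagonal, Fin.prod_univ_three]
  simp

theorem det_smul_one3 {F : Type u} [Field F] (c : F) :
    (c • (1 : Matrix (Fin 3) (Fin 3) F)).det = c ^ 3 := by
  rw [Matrix.det_smul, Matrix.det_one]
  simp

/-- the matrix of `k⁻¹ x k` when `k⁻¹ (c • x) k` is diagonal -/
theorem conj_val_of {F : Type u} [Field F] (c : F) (hc : c ≠ 0) (x k : GL (Fin 3) F)
    (D : Matrix (Fin 3) (Fin 3) F)
    (h : ((k⁻¹ * (scalU c hc * x) * k : GL (Fin 3) F) : Matrix (Fin 3) (Fin 3) F) = D) :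
    ((k⁻¹ * x * k : GL (Fin 3) F) : Matrix (Fin 3) (Fin 3) F) = c⁻¹ • D := by
  rw [← h]
  simp only [Units.val_mul, scalU_val, Matrix.smul_mul, Matrix.mul_smul, Matrix.one_mul, smul_smul,
    inv_mul_cancel₀ hc, one_smul]

/-- if `k⁻¹ x k` is scalar then so is `x`. -/
theorem scalar_of_conj {F : Type u} [Field F] (x k : GL (Fin 3) F) (c : F)
    (h : ((k⁻¹ * x * k : GL (Fin 3) F) : Matrix (Fin 3) (Fin 3) F) = c • 1) :
    (x : Matrix (Fin 3) (Fin 3) F) = c • 1 := by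
  have hx : x = k * (k⁻¹ * x * k) * k⁻¹ := by group
  rw [hx, Units.val_mul, Units.val_mul, h, Matrix.mul_smul, Matrix.mul_one, Matrix.smul_mul,
    Units.mul_inv]

theorem det_conj {F : Type u} [Field F] (x k : GL (Fin 3) F) :
    ((k⁻¹ * x * k : GL (Fin 3) F) : Matrix (Fin 3) (Fin 3) F).det =
      (x : Matrix (Fin 3) (Fin 3) F).det := by
  have h1 : ((k⁻¹ : GL (Fin 3) F) : Matrix (Fin 3) (Fin 3) F).det *
      (k : Matrix (Fin 3) (Fin 3) F).det = 1 := by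
    rw [← Matrix.det_mul, Units.inv_mul, Matrix.det_one]
  rw [Units.val_mul, Units.val_mul, Matrix.det_mul, Matrix.det_mul]
  calc ((k⁻¹ : GL (Fin 3) F) : Matrix (Fin 3) (Fin 3) F).det * (x : Matrix (Fin 3) (Fin 3) F).det *
      (k : Matrix (Fin 3) (Fin 3) F).det
      = (((k⁻¹ : GL (Fin 3) F) : Matrix (Fin 3) (Fin 3) F).det *
          (k : Matrix (Fin 3) (Fin 3) F).det) * (x : Matrix (Fin 3) (Fin 3) F).det := by ring
    _ = _ := by rw [h1, one_mul]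

/-- [INV] -/
theorem pkgInv_of (hU : PkgUDiag.{u}) (hI : PkgInvD.{u}) : PkgInv.{u} := by
  intro F _ _ q w hF hodd h3 hw h3F x hx hx2 hxns
  obtain ⟨z, hz⟩ := hx2
  rw [mem_Gp_iff] at hx
  obtain ⟨hxU, hxdet⟩ := hx
  -- `z ^ 3 = 1`
  have hz3 : z ^ 3 = 1 := by
    have h := congrArg Matrix.det hz
    rw [Units.val_pow_eq_pow_val, Matrix.det_pow, hxdet, one_pow, det_smul_one3] at h
    exact h.symm
  have hz0 : z ≠ 0 := by
    rintro rfl
    simp at hz3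
  have hzq : z ^ (q + 1) = 1 := by
    obtain ⟨t, ht⟩ := h3
    rw [ht, pow_mul, hz3, one_pow]
  -- `y := z • x`
  set y : GL (Fin 3) F := scalU z hz0 * x with hy
  have hyU : y ∈ Cfsg.GU 3 F q := Subgroup.mul_mem _ (scalU_mem_GU z hz0 hzq) hxU
  have hy2 : y ^ 2 = 1 := by
    apply Units.ext
    rw [Units.val_pow_eq_pow_val, hy, Units.val_mul, scalU_val, Units.val_one, pow_two]
    rw [Units.val_pow_eq_pow_val, pow_two] at hz
    rw [Matrix.smul_mul, Matrix.one_mul, Matrix.mul_smul, Matrix.smul_mul, hz, smul_smul, smul_smul,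
      ← pow_two, ← pow_succ, hz3, one_smul]
  have h2q : 2 ∣ q + 1 := by
    obtain ⟨t, ht⟩ := hodd
    exact ⟨t + 1, by omega⟩
  obtain ⟨k, hk, d, hd, hkd⟩ := hU F q 2 y hF (by norm_num) h2q hyU hy2
  have hn : ((k⁻¹ * x * k : GL (Fin 3) F) : Matrix (Fin 3) (Fin 3) F) = z⁻¹ • Matrix.diagonal d :=
    conj_val_of z hz0 x k _ hkd
  -- determinant
  have hprod : d 0 * d 1 * d 2 = 1 := by
    have h := det_conj x k
    rw [hn, hxdet, det_smul_diag, inv_pow, hz3, inv_one, one_mul] at h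
    exact h
  have hnc : ¬ (d 0 = d 1 ∧ d 1 = d 2) := by
    rintro ⟨h01, h12⟩
    apply hxns (z⁻¹ * d 0)
    apply scalar_of_conj x k
    rw [hn, ← smul_smul]
    congr 1
    ext i j
    fin_cases i <;> fin_cases j <;> simp [Matrix.diagonal, ← h12, ← h01]
  obtain ⟨k', hk', hk'n⟩ := hI F q w (k⁻¹ * x * k) z⁻¹ d hF hodd h3 hw h3F hd hprod hnc hn
  refine ⟨k * k', Subgroup.mul_mem _ hk hk', ?_⟩
  have : (k * k')⁻¹ * x * (k * k') = k'⁻¹ * (k⁻¹ * x * k) * k' := by group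
  rw [this]
  exact hk'n

end Cfsg.Agent.Lib.Helper66.U27
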