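import Mathlib
import Cfsg.Agent.Lib.Helper37.U27.Defs
import Cfsg.Agent.Lib.Helper45.HermSU
import Cfsg.Agent.Lib.Helper66.U27.Inv

/-!
# Project U27 (S5999): package [CUBE] (`r = 3`, `9 ∣ q + 1`)
-/

set_option autoImplicit false
open scoped MatrixGroups Matrix

namespace Cfsg.Agent.Lib.Helper66.U27

open Cfsg.Agent.Lib.Helper37.U27 Cfsg.Agent.Lib.Helper45

universe u

/-- cube roots of the cube roots of unity inside the norm-one group, when `9 ∣ q + 1`. -/
theorem exists_cube_root {F : Type u} [Field F] [Fintype F] {q : ℕ} (hF : Fintype.card F = q ^ 2)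
    (h9 : 9 ∣ q + 1) (z : F) (hz : z ^ 3 = 1) : ∃ c : F, c ^ 3 = z ∧ c ^ (q + 1) = 1 := by
  classical
  obtain ⟨t, ht⟩ := h9
  have ht0 : 0 < t := by
    rcases Nat.eq_zero_or_pos t with h | h
    · subst h; omega
    · exact h
  obtain ⟨θ, hθ⟩ := IsCyclic.exists_ofOrder_eq_natCard (α := Fˣ)
  have hord : orderOf θ = (q - 1) * (9 * t) := by
    rw [hθ, Nat.card_eq_fintype_card, Fintype.card_units, hF, ← ht]
    have hq : 1 ≤ q := by omega
    obtain ⟨s, rfl⟩ : ∃ s, q = s + 1 := ⟨q - 1, by omega⟩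
    simp only [Nat.add_sub_cancel]
    have : (s + 1) ^ 2 = s * (s + 1 + 1) + 1 := by ring
    rw [this, Nat.add_sub_cancel]
  have hq8 : 8 ≤ q := by omega
  set ζ : F := ((θ ^ (q - 1) : Fˣ) : F) with hζ
  have hζq : ζ ^ (q + 1) = 1 := by
    rw [hζ, ← Units.val_pow_eq_pow_val, ← pow_mul, ht, ← hord, pow_orderOf_eq_one, Units.val_one]
  set η : F := ζ ^ (3 * t) with hη
  have hη3 : η ^ 3 = 1 := by
    rw [hη, ← pow_mul, show 3 * t * 3 = q + 1 by omega, hζq]
  have hη1 : η ≠ 1 := by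
    intro h
    have h1 : (θ ^ ((q - 1) * (3 * t)) : Fˣ) = 1 := by
      apply Units.ext
      rw [Units.val_pow_eq_pow_val, pow_mul, ← Units.val_pow_eq_pow_val, Units.val_one]
      exact h
    have hlt : (q - 1) * (3 * t) < orderOf θ := by
      rw [hord]
      have : 0 < q - 1 := by omega
      nlinarith
    have hpos : (q - 1) * (3 * t) ≠ 0 := by
      have : 0 < q - 1 := by omega
      positivity
    exact pow_ne_one_of_lt_orderOf hpos hlt h1
  have hη2 : η ^ 2 + η + 1 = 0 := by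
    have h : (η - 1) * (η ^ 2 + η + 1) = 0 := by
      have : (η - 1) * (η ^ 2 + η + 1) = η ^ 3 - 1 := by ring
      rw [this, hη3, sub_self]
    rcases mul_eq_zero.mp h with h | h
    · exact absurd (sub_eq_zero.mp h) hη1
    · exact h
  have hfac : (z - 1) * (z - η) * (z - η ^ 2) = 0 := by
    have : (z - 1) * (z - η) * (z - η ^ 2) =
        z ^ 3 - η ^ 3 - (η ^ 2 + η + 1) * z ^ 2 + (η ^ 2 + η + 1) * z * η := by
      ring
    rw [this, hz, hη3, hη2]
    ring
  rcases mul_eq_zero.mp hfac with h | h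
  · rcases mul_eq_zero.mp h with h | h
    · refine ⟨1, ?_, one_pow _⟩
      rw [one_pow]
      exact (sub_eq_zero.mp h).symm
    · refine ⟨ζ ^ t, ?_, ?_⟩
      · rw [← pow_mul, mul_comm t 3, ← hη]
        exact (sub_eq_zero.mp h).symm
      · rw [← pow_mul, mul_comm, pow_mul, hζq, one_pow]
  · refine ⟨ζ ^ (t * 2), ?_, ?_⟩
    · rw [← pow_mul, show t * 2 * 3 = 3 * t * 2 by ring, pow_mul, ← hη]
      exact (sub_eq_zero.mp h).symm
    · rw [← pow_mul, mul_comm, pow_mul, hζq, one_pow]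

/-- [CUBE] -/
theorem pkgCube_of (hU : PkgUDiag.{u}) (hD : PkgDNorm.{u}) : PkgCube.{u} := by
  intro F _ _ q w hF h9 hw h3F x hx hx3 _
  obtain ⟨z, hz⟩ := hx3
  rw [mem_Gp_iff] at hx
  obtain ⟨hxU, hxdet⟩ := hx
  have hz3 : z ^ 3 = 1 := by
    have h := congrArg Matrix.det hz
    rw [Units.val_pow_eq_pow_val, Matrix.det_pow, hxdet, one_pow, det_smul_one3] at h
    exact h.symm
  obtain ⟨c, hc3, hcq⟩ := exists_cube_root hF h9 z hz3
  have hc0 : c ≠ 0 := by
    rintro rfl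
    simp at hcq
  have hci0 : c⁻¹ ≠ 0 := inv_ne_zero hc0
  have hciq : c⁻¹ ^ (q + 1) = 1 := by rw [inv_pow, hcq, inv_one]
  set y : GL (Fin 3) F := scalU c⁻¹ hci0 * x with hy
  have hyU : y ∈ Cfsg.GU 3 F q := Subgroup.mul_mem _ (scalU_mem_GU c⁻¹ hci0 hciq) hxU
  have hy3 : y ^ 3 = 1 := by
    apply Units.ext
    rw [Units.val_pow_eq_pow_val, hy, Units.val_mul, scalU_val, Units.val_one, Matrix.smul_mul,
      Matrix.one_mul, smul_pow, ← Units.val_pow_eq_pow_val, hz, smul_smul, inv_pow, hc3,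
      inv_mul_cancel₀, one_smul]
    rw [← hc3]
    exact pow_ne_zero 3 hc0
  have h3q : 3 ∣ q + 1 := Dvd.dvd.trans (by norm_num) h9
  obtain ⟨k, hk, d, hd, hkd⟩ := hU F q 3 y hF (by norm_num) h3q hyU hy3
  have hn : ((k⁻¹ * x * k : GL (Fin 3) F) : Matrix (Fin 3) (Fin 3) F) = c • Matrix.diagonal d := by
    have h := conj_val_of c⁻¹ hci0 x k _ hkd
    rw [inv_inv] at h
    exact h
  exact ⟨k, hk, hD F w (k⁻¹ * x * k) c d hw h3F hd hn⟩

end Cfsg.Agent.Lib.Helper66.U27
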